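import Mathlib
import Cfsg.Agent.Lib.OddSym.TopA

/-!
# The correspondence for an abelian section, `K ∩ H = L`
-/

set_option autoImplicit false
set_option linter.unusedSectionVars false
set_option linter.style.haveILetI false

namespace Cfsg.Agent.Lib.OddSym.TopB

open Module
open Cfsg Cfsg.Agent.Lib.Char.Basic Cfsg.Agent.Lib.Char.Ortho Cfsg.Agent.Lib.Char.Complete
open Cfsg.Agent.Lib.Char.Conj Cfsg.Agent.Lib.Char.Clifford Cfsg.Agent.Lib.DGN.Basic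
open Cfsg.Agent.Lib.Glauberman.ConjAct Cfsg.Agent.Lib.Glauberman.Act
open Cfsg.Agent.Lib.Glauberman.CoprimeInv
open Cfsg.Agent.Lib.OddSym.CentralB Cfsg.Agent.Lib.OddSym.LiftA Cfsg.Agent.Lib.OddSym.Transport
open Cfsg.Agent.Lib.OddSym.TopA
open scoped Classical ComplexConjugate

universe u

variable {Γ : Type u} [Group Γ] [Fintype Γ]

/-- The reduced hypotheses. -/
structure RD (G S C K L H : Subgroup Γ) : Prop where
  hnorm : ∀ s ∈ S, ∀ g ∈ G, s * g * s⁻¹ ∈ G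
  hcop : (Nat.card G).Coprime (Nat.card S)
  hsolv : Group.IsSolvable G
  hodd : Odd (Nat.card G)
  hCG : C ≤ G
  hCf : ∀ c ∈ C, ∀ s ∈ S, s * c * s⁻¹ = c
  hCm : ∀ g ∈ G, (∀ s ∈ S, s * g * s⁻¹ = g) → g ∈ C
  hLK : L ≤ K
  hKG : K ≤ G
  hKn : ∀ g ∈ G, ∀ k ∈ K, g * k * g⁻¹ ∈ K
  hLn : ∀ g ∈ G, ∀ l ∈ L, g * l * g⁻¹ ∈ L
  hKS : ∀ s ∈ S, ∀ k ∈ K, s * k * s⁻¹ ∈ K
  hLS : ∀ s ∈ S, ∀ l ∈ L, s * l * s⁻¹ ∈ L
  hab : ∀ a ∈ K, ∀ b ∈ K, a * b * a⁻¹ * b⁻¹ ∈ L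
  hGKC : ∀ g ∈ G, ∃ k ∈ K, ∃ c ∈ C, g = k * c
  hLH : L ≤ H
  hCH : C ≤ H
  hHG : H ≤ G
  hHLC : ∀ h ∈ H, ∃ l ∈ L, ∃ c ∈ C, h = l * c
  hKH : ∀ x ∈ K, x ∈ H → x ∈ L

variable {G S C K L H : Subgroup Γ}

namespace RD

variable (R : RD G S C K L H)

include R

theorem hSH : ∀ s ∈ S, ∀ h ∈ H, s * h * s⁻¹ ∈ H := by
  intro s hs h hh
  obtain ⟨l, hl, c, hc, rfl⟩ := R.hHLC h hh
  have h1 : s * (l * c) * s⁻¹ = (s * l * s⁻¹) * (s * c * s⁻¹) := by group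
  rw [h1, R.hCf c hc s hs]
  exact H.mul_mem (R.hLH (R.hLS s hs l hl)) (R.hCH hc)

theorem hHn : ∀ h ∈ H, ∀ l ∈ L, h * l * h⁻¹ ∈ L := fun h hh => R.hLn h (R.hHG hh)

theorem hLG : L ≤ G := R.hLK.trans R.hKG

theorem cop_le {A : Subgroup Γ} (h : A ≤ G) : (Nat.card A).Coprime (Nat.card S) :=
  Nat.Coprime.coprime_dvd_left (Subgroup.card_dvd_of_le h) R.hcop

theorem solv_le {A : Subgroup Γ} (h : A ≤ G) : Group.IsSolvable A := by
  haveI := R.hsolv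
  exact Group.isSolvable_of_isSolvable_injective (Subgroup.inclusion_injective h)

theorem hJS : ∀ j ∈ K, (∀ s ∈ S, s * j * s⁻¹ * j⁻¹ ∈ L) → j ∈ L := by
  intro j hj h
  have hcoset : ∀ s ∈ S, j⁻¹ * (s * j * s⁻¹) ∈ L := by
    intro s hs
    have h1 := R.hLn j⁻¹ (G.inv_mem (R.hKG hj)) _ (h s hs)
    have h2 : j⁻¹ * (s * j * s⁻¹ * j⁻¹) * j⁻¹⁻¹ = j⁻¹ * (s * j * s⁻¹) := by group
    rwa [h2] at h1
  obtain ⟨b, hb, hfix⟩ := exists_fixed_in_coset R.hLS (R.cop_le R.hLG) (Or.inl (R.solv_le R.hLG)) j hcoset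
  have h1 : j * b ∈ K := K.mul_mem hj (R.hLK hb)
  have h2 : j * b ∈ C := R.hCm _ (R.hKG h1) hfix
  have h3 : j * b ∈ L := R.hKH _ h1 (R.hCH h2)
  have h4 := L.mul_mem h3 (L.inv_mem hb)
  simpa using h4

variable {φ : L → ℂ}

theorem hUT : stab L H R.hHn φ ≤ stab L G R.hLn φ := fun _ h => ⟨R.hHG h.1, h.2⟩

/-- The data over `φ`. -/
theorem td (hφ : IsIrrCharacter L φ)
    (hφS : ∀ s ∈ S, ∀ q q' : L, (q' : Γ) = s * q * s⁻¹ → φ q' = φ q) :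
    TD L (stab L G R.hLn φ) (K ⊓ stab L G R.hLn φ) (stab L H R.hHn φ) S φ := by
  have hST := stab_S (hQn := R.hLn) R.hnorm R.hLS hφS
  have hSJ : ∀ s ∈ S, ∀ x ∈ K ⊓ stab L G R.hLn φ, s * x * s⁻¹ ∈ K ⊓ stab L G R.hLn φ :=
    fun s hs x hx => ⟨R.hKS s hs x hx.1, hST s hs x hx.2⟩
  have hJG : K ⊓ stab L G R.hLn φ ≤ G := inf_le_left.trans R.hKG
  refine
    { hNJ := le_inf R.hLK (le_stab' R.hLG R.hLn hφ)
      hNU := le_stab' R.hLH R.hHn hφ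
      hJT := inf_le_right
      hUT := R.hUT
      hJn := fun t ht j hj => ⟨R.hKn t ht.1 j hj.1, Subgroup.mul_mem _ (Subgroup.mul_mem _ ht hj.2) (Subgroup.inv_mem _ ht)⟩
      hab := fun a ha b hb => R.hab a ha.1 b hb.1
      hTJU := ?_
      hJU := fun x hx hx' => R.hKH x hx.1 hx'.1
      hSJ := hSJ
      hST := hST
      hSU := stab_S (hQn := R.hHn) R.hSH R.hLS hφS
      hUS := ?_
      hJS := fun j hj h => R.hJS j hj.1 h
      hcop := R.cop_le stab_le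
      hodd := Odd.of_dvd_nat R.hodd (Subgroup.card_dvd_of_le stab_le)
      hsolv := R.solv_le stab_le
      hTn := fun t ht l hl => R.hLn t ht.1 l hl
      hSn := R.hLS
      hTφ := fun t ht => ht.2
      hSφ := hφS }
  · intro t ht
    have htG : t ∈ G := ht.1
    have hcoset : ∀ s ∈ S, t⁻¹⁻¹ * (s * t⁻¹ * s⁻¹) ∈ K ⊓ stab L G R.hLn φ := by
      intro s hs
      rw [inv_inv]
      constructor
      · obtain ⟨k, hk, c, hc, e⟩ := R.hGKC t htG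
        have h1 := R.hCf c⁻¹ (C.inv_mem hc) s hs
        have h2 : t * (s * t⁻¹ * s⁻¹) = k * (s * k⁻¹ * s⁻¹) := by
          calc t * (s * t⁻¹ * s⁻¹) = k * c * ((s * c⁻¹ * s⁻¹) * (s * k⁻¹ * s⁻¹)) := by
                rw [e]
                group
            _ = k * (s * k⁻¹ * s⁻¹) := by
                rw [h1]
                group
        rw [h2]
        exact K.mul_mem hk (R.hKS s hs _ (K.inv_mem hk))
      · exact Subgroup.mul_mem _ ht (hST s hs _ (Subgroup.inv_mem _ ht))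
    obtain ⟨b, hb, hfix⟩ := exists_fixed_in_coset hSJ (R.cop_le hJG) (Or.inl (R.solv_le hJG)) t⁻¹ hcoset
    have h1 : t⁻¹ * b ∈ G := G.mul_mem (G.inv_mem htG) (hJG hb)
    have h2 : t⁻¹ * b ∈ C := R.hCm _ h1 hfix
    have h3 : t⁻¹ * b ∈ stab L G R.hLn φ := Subgroup.mul_mem _ (Subgroup.inv_mem _ ht) hb.2
    have h4 : t⁻¹ * b ∈ stab L H R.hHn φ := ⟨R.hCH h2, h3.2⟩
    refine ⟨b, hb, (t⁻¹ * b)⁻¹, Subgroup.inv_mem _ h4, by group⟩
  · intro s hs u hu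
    obtain ⟨l, hl, c, hc, e⟩ := R.hHLC u hu.1
    have h1 : s * u * s⁻¹ * u⁻¹ = (s * l * s⁻¹) * (s * c * s⁻¹) * c⁻¹ * l⁻¹ := by
      rw [e]
      group
    rw [h1, R.hCf c hc s hs, mul_inv_cancel_right]
    exact L.mul_mem (R.hLS s hs l hl) (L.inv_mem hl)

/-- Two invariant constituents are conjugate under `C`. -/
theorem exists_conj {χ : G → ℂ} (hχ : IsIrrCharacter G χ) {φ' : L → ℂ}
    (hφ : IsIrrCharacter L φ) (hφ' : IsIrrCharacter L φ')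
    (hS : ∀ s ∈ S, ∀ q q' : L, (q' : Γ) = s * q * s⁻¹ → φ q' = φ q)
    (hS' : ∀ s ∈ S, ∀ q q' : L, (q' : Γ) = s * q * s⁻¹ → φ' q' = φ' q)
    (h1 : classInner (rs R.hLG χ) φ ≠ 0) (h2 : classInner (rs R.hLG χ) φ' ≠ 0) :
    ∃ c ∈ C, ∀ q q' : L, (q' : Γ) = c * q * c⁻¹ → φ q' = φ' q := by
  have hN : (L.subgroupOf G).Normal := normal_subgroupOf R.hLn
  have hirr := isIrr_th R.hLG hφ
  have hirr' := isIrr_th R.hLG hφ'
  have hex : ∃ g : G, conjOn hN g (th R.hLG φ) = th R.hLG φ' := by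
    by_contra hcon
    push Not at hcon
    have h3 := classInner_restrict_eq_zero_of_not_conj hN hχ hirr hirr'
      (by rw [classInner_rs_bridge R.hLG χ]; exact h1) hcon
    rw [classInner_rs_bridge R.hLG χ] at h3
    exact h2 h3
  obtain ⟨g, hg⟩ := hex
  -- the property
  let P : Γ → Prop := fun x => ∀ q q' : L, (q' : Γ) = x * q * x⁻¹ → φ q' = φ' q
  have hPg : P g := by
    intro q q' hq
    have h3 := congrFun hg ((Subgroup.subgroupOfEquivOfLe R.hLG).symm q)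
    rw [conjOn_apply] at h3
    have h4 : (Subgroup.subgroupOfEquivOfLe R.hLG) ⟨g * ((Subgroup.subgroupOfEquivOfLe R.hLG).symm q : L.subgroupOf G) * g⁻¹,
        hN.conj_mem _ ((Subgroup.subgroupOfEquivOfLe R.hLG).symm q).2 g⟩ = q' := by
      apply Subtype.ext
      rw [hq]
      rfl
    simp only [th, Function.comp, MulEquiv.apply_symm_apply] at h3
    rw [h4] at h3
    exact h3
  have hPs : ∀ x, P x → ∀ s ∈ S, x ∈ G → P (s * x * s⁻¹) := by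
    intro x hx s hs hxG q q' hq
    have hq1 : s⁻¹ * q * s ∈ L := by
      have h3 := R.hLS s⁻¹ (S.inv_mem hs) q q.2
      rwa [inv_inv] at h3
    let q₁ : L := ⟨_, hq1⟩
    let q₂ : L := ⟨x * q₁ * x⁻¹, R.hLn x hxG q₁ q₁.2⟩
    have h3 : φ q₂ = φ' q₁ := hx q₁ q₂ rfl
    have h4 : φ q' = φ q₂ := hS s hs q₂ q' (by
      rw [hq]
      show _ = s * (x * (s⁻¹ * q * s) * x⁻¹) * s⁻¹
      group)
    have h5 : φ' q = φ' q₁ := hS' s hs q₁ q (by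
      show (q : Γ) = s * (s⁻¹ * q * s) * s⁻¹
      group)
    rw [h4, h3, h5]
  have hT : ∀ x y, x ∈ G → y ∈ G → P x → P y → x * y⁻¹ ∈ stab L G R.hLn φ := by
    intro x y hx hy hPx hPy
    refine ⟨G.mul_mem hx (G.inv_mem hy), fun q q' hq => ?_⟩
    have hq1 : y⁻¹ * q * y ∈ L := by
      have h3 := R.hLn y⁻¹ (G.inv_mem hy) q q.2
      rwa [inv_inv] at h3
    let q₁ : L := ⟨_, hq1⟩
    have h3 : φ q' = φ' q₁ := hPx q₁ q' (by
      rw [hq]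
      show _ = x * (y⁻¹ * q * y) * x⁻¹
      group)
    have h4 : φ q = φ' q₁ := hPy q₁ q (by
      show (q : Γ) = y * (y⁻¹ * q * y) * y⁻¹
      group)
    rw [h3, h4]
  have hST := stab_S (hQn := R.hLn) R.hnorm R.hLS hS
  have hTG : stab L G R.hLn φ ≤ G := stab_le
  have hcoset : ∀ s ∈ S, (g : Γ)⁻¹⁻¹ * (s * (g : Γ)⁻¹ * s⁻¹) ∈ stab L G R.hLn φ := by
    intro s hs
    have h3 := hT g (s * g * s⁻¹) g.2 (R.hnorm s hs g g.2) hPg (hPs g hPg s hs g.2)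
    have h4 : (g : Γ) * (s * g * s⁻¹)⁻¹ = (g : Γ)⁻¹⁻¹ * (s * (g : Γ)⁻¹ * s⁻¹) := by group
    rwa [h4] at h3
  obtain ⟨b, hb, hfix⟩ := exists_fixed_in_coset hST (R.cop_le hTG) (Or.inl (R.solv_le hTG)) (g : Γ)⁻¹ hcoset
  refine ⟨(((g : Γ)⁻¹ * b))⁻¹, ?_, ?_⟩
  · apply C.inv_mem
    exact R.hCm _ (G.mul_mem (G.inv_mem g.2) (hTG hb)) hfix
  · intro q q' hq
    let q₁ : L := ⟨g * q * (g : Γ)⁻¹, R.hLn g g.2 q q.2⟩
    have h3 : φ q₁ = φ' q := hPg q q₁ rfl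
    have h4 : φ q' = φ q₁ := by
      apply (Subgroup.inv_mem _ hb).2 q₁ q'
      rw [hq]
      show _ = b⁻¹ * (g * q * (g : Γ)⁻¹) * b⁻¹⁻¹
      group
    rw [h4, h3]

end RD

/-- Invariant constituents. -/
theorem inv_under {A : Subgroup Γ} (hLA : L ≤ A) (hAn : ∀ a ∈ A, ∀ l ∈ L, a * l * a⁻¹ ∈ L)
    (hAS : ∀ s ∈ S, ∀ a ∈ A, s * a * s⁻¹ ∈ A) (hLS : ∀ s ∈ S, ∀ l ∈ L, s * l * s⁻¹ ∈ L)
    (hcop : (Nat.card A).Coprime (Nat.card S)) (hsolv : Group.IsSolvable A)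
    {χ : A → ℂ} (hχ : IsIrrCharacter A χ) (hS : SInv S χ) :
    ∃ φ : L → ℂ, IsIrrCharacter L φ ∧
      (∀ s ∈ S, ∀ q q' : L, (q' : Γ) = s * q * s⁻¹ → φ q' = φ q) ∧ classInner (rs hLA χ) φ ≠ 0 := by
  haveI : (L.subgroupOf A).Normal := normal_subgroupOf hAn
  have hc : (L.relIndex A).Coprime (Nat.card S) :=
    Nat.Coprime.coprime_dvd_left (Subgroup.index_dvd_card _) hcop
  have hs : Group.IsSolvable (A ⧸ L.subgroupOf A) := by
    haveI := hsolv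
    infer_instance
  obtain ⟨θ, h1, h2⟩ := inv_below hAS hLA hLS hc (Or.inr hs) ⟨χ, hχ⟩
    ((inv_iff_fixed hAS (⟨χ, hχ⟩ : IrrCharacter A)).mp hS)
  exact ⟨θ, θ.2, (inv_iff_fixed hLS θ).mpr h2, h1⟩

/-- The correspondent in the stabilizer. -/
theorem key_down {Q A : Subgroup Γ} {hQn : ∀ a ∈ A, ∀ q ∈ Q, a * q * a⁻¹ ∈ Q} {lam : Q → ℂ}
    (hQA : Q ≤ A) (hlam : IsIrrCharacter Q lam)
    (hSA : ∀ s ∈ S, ∀ a ∈ A, s * a * s⁻¹ ∈ A) (hSQ : ∀ s ∈ S, ∀ q ∈ Q, s * q * s⁻¹ ∈ Q)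
    (hlamS : ∀ s ∈ S, ∀ q q' : Q, (q' : Γ) = s * q * s⁻¹ → lam q' = lam q)
    {χ : A → ℂ} (hχ : IsIrrCharacter A χ) (hS : SInv S χ) (hcon : classInner (rs hQA χ) lam ≠ 0) :
    ∃ ξ : stab Q A hQn lam → ℂ, IsIrrCharacter _ ξ ∧ ind (stab_le (hQn := hQn) (lam := lam)) ξ = χ ∧
      classInner (rs (le_stab' hQA hQn hlam) ξ) lam ≠ 0 ∧ SInv S ξ := by
  obtain ⟨ξ, h1, h2, h3⟩ := exists_ind hQA hQn hlam hχ hcon
  refine ⟨ξ, h1, h2, h3, sinv_of_ind hQA hlam hSA hSQ hlamS h1 h3 ?_⟩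
  rw [h2]
  exact hS

theorem overP_stab {Q A : Subgroup Γ} {hQn : ∀ a ∈ A, ∀ q ∈ Q, a * q * a⁻¹ ∈ Q} {lam : Q → ℂ}
    (hQT : Q ≤ stab Q A hQn lam) (hlam : IsIrrCharacter Q lam) {ξ : stab Q A hQn lam → ℂ}
    (h : IsIrrCharacter _ ξ) (hcon : classInner (rs hQT ξ) lam ≠ 0) : OverP hQT lam ξ :=
  overP_of_ne_zero hQT (fun t ht => hQn t ht.1) hlam (fun t ht => ht.2) h hcon

theorem mono_over {A B : Subgroup Γ} (hLB : L ≤ B) (hBA : B ≤ A) {χ : A → ℂ} {ψ : B → ℂ} {φ : L → ℂ}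
    (hχ : IsIrrCharacter A χ) (hψ : IsIrrCharacter B ψ) (hφ : IsIrrCharacter L φ)
    (h1 : classInner (rs hBA χ) ψ ≠ 0) (h2 : classInner (rs hLB ψ) φ ≠ 0) :
    classInner (rs (hLB.trans hBA) χ) φ ≠ 0 :=
  classInner_ne_zero_mono (Subgroup.inclusion hLB) (isCharacter_rs hBA (isCharacter_of_isIrrCharacter hχ))
    hψ h1 (isCharacter_of_isIrrCharacter hφ) h2

/-- **The correspondence, reduced case.** -/
theorem reduced_main (R : RD G S C K L H) :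
    (∀ χ : IrrCharacter G, SInv S χ.1 → ∃! ψ : IrrCharacter H, SInv S ψ.1 ∧
      ∃ m : ℕ, classInner (fun h : H => χ.1 ⟨h, R.hHG h.2⟩) ψ.1 = m ∧ Odd m) ∧
    (∀ χ χ' : IrrCharacter G, SInv S χ.1 → SInv S χ'.1 → ∀ ψ : IrrCharacter H, SInv S ψ.1 →
      ∀ m m' : ℕ, classInner (fun h : H => χ.1 ⟨h, R.hHG h.2⟩) ψ.1 = m → Odd m →
      classInner (fun h : H => χ'.1 ⟨h, R.hHG h.2⟩) ψ.1 = m' → Odd m' → χ = χ') ∧
    (∀ ψ : IrrCharacter H, SInv S ψ.1 → ∃ χ : IrrCharacter G, SInv S χ.1 ∧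
      ∃ m : ℕ, classInner (fun h : H => χ.1 ⟨h, R.hHG h.2⟩) ψ.1 = m ∧ Odd m) := by
  have hLG := R.hLG
  have hcopH := R.cop_le R.hHG
  have hsolvH := R.solv_le R.hHG
  refine ⟨?_, ?_, ?_⟩
  · rintro ⟨χ, hχ⟩ hχS
    obtain ⟨φ, hφ, hφS, hφc⟩ := inv_under hLG R.hLn R.hnorm R.hLS R.hcop R.hsolv hχ hχS
    have D := R.td hφ hφS
    obtain ⟨hE, -, -⟩ := lift_final D hφ
    obtain ⟨ξ, hξ, hind, hξo, hξS⟩ := key_down (hQn := R.hLn) hLG hφ R.hnorm R.hLS hφS hχ hχS hφc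
    subst hind
    obtain ⟨η, ⟨⟨hη, hηo⟩, m, hm, hmo⟩, huniq⟩ := hE ξ hξ (overP_stab _ hφ hξ hξo) hξS
    have hηo' := ne_zero_of_overP _ hφ hηo
    have hQU : L ≤ stab L H R.hHn φ := le_stab' R.hLH R.hHn hφ
    have hσU := stab_S (hQn := R.hHn) R.hSH R.hLS hφS
    have hσT := stab_S (hQn := R.hLn) R.hnorm R.hLS hφS
    have hηS : SInv S η := by
      intro s hs g g' hg
      let σ : MulAut (stab L H R.hHn φ) := conjHom _ S hσU ⟨s, hs⟩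
      have hη' : IsIrrCharacter _ (η ∘ σ) := isIrrCharacter_comp_mulEquiv σ hη
      have ho' : OverP D.hNU φ (η ∘ σ) := by
        obtain ⟨e, he, h1⟩ := hηo
        refine ⟨e, he, fun n => ?_⟩
        have hn : s * (n : Γ) * s⁻¹ ∈ L := R.hLS s hs n n.2
        have h2 := h1 ⟨_, hn⟩
        have h3 : (η ∘ σ) ⟨n, D.hNU n.2⟩ = η ⟨((⟨_, hn⟩ : L) : Γ), D.hNU hn⟩ := rfl
        rw [h3, h2, hφS s hs n _ rfl]
      have hin : classInner (fun u : stab L H R.hHn φ => ξ ⟨u, D.hUT u.2⟩) (η ∘ σ) =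
          classInner (fun u : stab L H R.hHn φ => ξ ⟨u, D.hUT u.2⟩) η := by
        have h1 : (fun u : stab L H R.hHn φ => ξ ⟨u, D.hUT u.2⟩) ∘ σ =
            (fun u : stab L H R.hHn φ => ξ ⟨u, D.hUT u.2⟩) := by
          funext u
          exact hξS s hs ⟨u, D.hUT u.2⟩ _ rfl
        have h2 := classInner_comp_mulEquiv σ (fun u : stab L H R.hHn φ => ξ ⟨u, D.hUT u.2⟩) η
        rwa [h1] at h2
      have h1 := huniq (η ∘ σ) ⟨⟨hη', ho'⟩, m, by rw [hin]; exact hm, hmo⟩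
      have h2 : g' = σ g := Subtype.ext hg
      rw [h2]
      exact congrFun h1 g
    have hψ := isIrr_ind R.hLH R.hHn hφ hη hηo'
    have hψS := sinv_ind R.hLH hφ R.hSH R.hLS hφS hη hηo' hηS
    have hinner : ∀ η₂ : stab L H R.hHn φ → ℂ, IsIrrCharacter _ η₂ →
        classInner (rs hQU η₂) φ ≠ 0 →
        classInner (rs R.hHG (ind (stab_le (hQn := R.hLn) (lam := φ)) ξ))
          (ind (stab_le (hQn := R.hHn) (lam := φ)) η₂) =
        classInner (fun u : stab L H R.hHn φ => ξ ⟨u, D.hUT u.2⟩) η₂ := by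
      intro η₂ h1 h2
      exact inner_ind_ind R.hLH R.hHG R.hLn R.hHn hφ D.hUT hξ h1 hξo h2
    refine ⟨⟨ind (stab_le (hQn := R.hHn) (lam := φ)) η, hψ⟩, ⟨hψS, m, ?_, hmo⟩, ?_⟩
    · rw [← hm]
      exact hinner η hη hηo'
    · rintro ⟨ψ', hψ'⟩ ⟨hψ'S, m', hm', hm'o⟩
      apply Subtype.ext
      simp only at hψ'S hm' ⊢
      -- an invariant constituent of `ψ'`
      obtain ⟨φ', hφ', hφ'S, hφ'c⟩ := inv_under R.hLH R.hHn R.hSH R.hLS hcopH hsolvH hψ' hψ'S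
      have hχ := isIrr_ind hLG R.hLn hφ hξ hξo
      have h1 : classInner (rs hLG (ind (stab_le (hQn := R.hLn) (lam := φ)) ξ)) φ' ≠ 0 := by
        refine mono_over R.hLH R.hHG hχ hψ' hφ' ?_ hφ'c
        have h2 : classInner (rs R.hHG (ind (stab_le (hQn := R.hLn) (lam := φ)) ξ)) ψ' = m' := hm'
        rw [h2]
        intro h3
        have h4 : m' = 0 := by exact_mod_cast h3
        subst h4
        exact absurd hm'o (by simp)
      obtain ⟨c, hc, hcP⟩ := R.exists_conj hχ hφ hφ' hφS hφ'S hφc h1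
      -- `ψ'` lies over `φ`
      have hψ'φ : classInner (rs R.hLH ψ') φ ≠ 0 := by
        let σ : MulAut L := conjHom L H R.hHn ⟨c, R.hCH hc⟩
        have h2 : φ ∘ σ = φ' := by
          funext q
          exact hcP q _ rfl
        have h3 : rs R.hLH ψ' ∘ σ = rs R.hLH ψ' := by
          funext q
          have h4 := isClassFunction_of_isIrrCharacter hψ' ⟨q, R.hLH q.2⟩ ⟨c, R.hCH hc⟩
          exact h4
        have h4 := classInner_comp_mulEquiv σ (rs R.hLH ψ') φ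
        rw [h2, h3] at h4
        rw [← h4]
        exact hφ'c
      obtain ⟨η', hη', hind', hη'o, hη'S⟩ := key_down (hQn := R.hHn) R.hLH hφ R.hSH R.hLS hφS hψ' hψ'S hψ'φ
      subst hind'
      have h2 := hinner η' hη' hη'o
      have h3 : classInner (fun u : stab L H R.hHn φ => ξ ⟨u, D.hUT u.2⟩) η' = m' := by
        rw [← h2]
        exact hm'
      have h4 := huniq η' ⟨⟨hη', overP_stab _ hφ hη' hη'o⟩, m', h3, hm'o⟩
      rw [h4]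
  · rintro ⟨χ, hχ⟩ ⟨χ', hχ'⟩ hχS hχ'S ⟨ψ, hψ⟩ hψS m m' hm hmo hm' hm'o
    simp only at hχS hχ'S hψS hm hm'
    apply Subtype.ext
    simp only
    obtain ⟨φ, hφ, hφS, hφc⟩ := inv_under R.hLH R.hHn R.hSH R.hLS hcopH hsolvH hψ hψS
    have D := R.td hφ hφS
    obtain ⟨-, hI, -⟩ := lift_final D hφ
    obtain ⟨η, hη, hind, hηo, hηS⟩ := key_down (hQn := R.hHn) R.hLH hφ R.hSH R.hLS hφS hψ hψS hφc
    subst hind
    have hne : ∀ k : ℕ, Odd k → (k : ℂ) ≠ 0 := by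
      intro k hk h
      have h4 : k = 0 := by exact_mod_cast h
      subst h4
      exact absurd hk (by simp)
    have h1 : classInner (rs hLG χ) φ ≠ 0 := mono_over R.hLH R.hHG hχ hψ hφ (by
      have h2 : classInner (rs R.hHG χ) _ = m := hm
      rw [h2]
      exact hne m hmo) hφc
    have h1' : classInner (rs hLG χ') φ ≠ 0 := mono_over R.hLH R.hHG hχ' hψ hφ (by
      have h2 : classInner (rs R.hHG χ') _ = m' := hm'
      rw [h2]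
      exact hne m' hm'o) hφc
    obtain ⟨ξ, hξ, hind, hξo, hξS⟩ := key_down (hQn := R.hLn) hLG hφ R.hnorm R.hLS hφS hχ hχS h1
    obtain ⟨ξ', hξ', hind', hξ'o, hξ'S⟩ := key_down (hQn := R.hLn) hLG hφ R.hnorm R.hLS hφS hχ' hχ'S h1'
    subst hind
    subst hind'
    have h2 := inner_ind_ind R.hLH R.hHG R.hLn R.hHn hφ D.hUT hξ hη hξo hηo
    have h3 := inner_ind_ind R.hLH R.hHG R.hLn R.hHn hφ D.hUT hξ' hη hξ'o hηo
    have h4 := hI ξ ξ' hξ (overP_stab _ hφ hξ hξo) hξS hξ' (overP_stab _ hφ hξ' hξ'o) hξ'S η hη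
      (overP_stab _ hφ hη hηo) ⟨m, h2.symm.trans hm, hmo⟩ ⟨m', h3.symm.trans hm', hm'o⟩
    rw [h4]
  · rintro ⟨ψ, hψ⟩ hψS
    simp only at hψS
    obtain ⟨φ, hφ, hφS, hφc⟩ := inv_under R.hLH R.hHn R.hSH R.hLS hcopH hsolvH hψ hψS
    have D := R.td hφ hφS
    obtain ⟨-, -, hSS⟩ := lift_final D hφ
    obtain ⟨η, hη, hind, hηo, hηS⟩ := key_down (hQn := R.hHn) R.hLH hφ R.hSH R.hLS hφS hψ hψS hφc
    subst hind
    obtain ⟨ξ, hξ, hξo, hξS, m, hm, hmo⟩ := hSS η hη (overP_stab _ hφ hη hηo)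
    have hξo' := ne_zero_of_overP _ hφ hξo
    refine ⟨⟨ind (stab_le (hQn := R.hLn) (lam := φ)) ξ, isIrr_ind hLG R.hLn hφ hξ hξo'⟩,
      sinv_ind hLG hφ R.hnorm R.hLS hφS hξ hξo' hξS, m, ?_, hmo⟩
    rw [← hm]
    exact inner_ind_ind R.hLH R.hHG R.hLn R.hHn hφ D.hUT hξ hη hξo' hηo

end Cfsg.Agent.Lib.OddSym.TopB
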