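import Mathlib
import Cfsg.Agent.Lib.OddSym.TopB

/-!
# The correspondence for an abelian section, in general
-/

set_option autoImplicit false
set_option linter.unusedSectionVars false
set_option linter.style.haveILetI false

namespace Cfsg.Agent.Lib.OddSym.TopC

open Cfsg Cfsg.Agent.Lib.OddSym.CentralB Cfsg.Agent.Lib.OddSym.TopB

universe u

variable {Γ : Type u} [Group Γ] [Fintype Γ]

/-- Elements of a join with a normalized factor are products. -/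
theorem exists_mul_of_mem_sup {A B : Subgroup Γ} (hn : ∀ b ∈ B, ∀ a ∈ A, b * a * b⁻¹ ∈ A) {x : Γ}
    (hx : x ∈ A ⊔ B) : ∃ a ∈ A, ∃ b ∈ B, x = a * b := by
  let P : Subgroup Γ :=
    { carrier := {x | ∃ a ∈ A, ∃ b ∈ B, x = a * b}
      mul_mem' := by
        rintro _ _ ⟨a, ha, b, hb, rfl⟩ ⟨a', ha', b', hb', rfl⟩
        refine ⟨a * (b * a' * b⁻¹), A.mul_mem ha (hn b hb a' ha'), b * b', B.mul_mem hb hb', by group⟩
      one_mem' := ⟨1, A.one_mem, 1, B.one_mem, by simp⟩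
      inv_mem' := by
        rintro _ ⟨a, ha, b, hb, rfl⟩
        refine ⟨b⁻¹ * a⁻¹ * b⁻¹⁻¹, hn b⁻¹ (B.inv_mem hb) _ (A.inv_mem ha), b⁻¹, B.inv_mem hb, by group⟩ }
  have hle : A ⊔ B ≤ P := sup_le (fun a ha => ⟨a, ha, 1, B.one_mem, by simp⟩)
    (fun b hb => ⟨1, A.one_mem, b, hb, by simp⟩)
  exact hle hx

open scoped Classical in
/-- The reduction. -/
theorem reduction {G S C K L H : Subgroup Γ} (hnorm : ∀ s ∈ S, ∀ g ∈ G, s * g * s⁻¹ ∈ G)
    (hcop : (Nat.card G).Coprime (Nat.card S)) (hGsolv : Group.IsSolvable G)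
    (hodd : Odd (Nat.card G)) (hC : C = G ⊓ Subgroup.centralizer (S : Set Γ)) (hCG : C ≤ G)
    (hLK : L ≤ K) (hKG : K ≤ G) (hKn : ∀ g ∈ G, ∀ k ∈ K, g * k * g⁻¹ ∈ K)
    (hLn : ∀ g ∈ G, ∀ l ∈ L, g * l * g⁻¹ ∈ L) (hKS : ∀ s ∈ S, ∀ k ∈ K, s * k * s⁻¹ ∈ K)
    (hLS : ∀ s ∈ S, ∀ l ∈ L, s * l * s⁻¹ ∈ L) (hab : ∀ a ∈ K, ∀ b ∈ K, a * b * a⁻¹ * b⁻¹ ∈ L)
    (hGKC : K ⊔ C = G) (hH : H = L ⊔ C) (hHG : H ≤ G) : RD G S C K (K ⊓ H) H := by
  have hLH : L ≤ H := hH ▸ le_sup_left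
  have hCH : C ≤ H := hH ▸ le_sup_right
  have hCf : ∀ c ∈ C, ∀ s ∈ S, s * c * s⁻¹ = c := by
    intro c hc s hs
    rw [hC] at hc
    have h1 := Subgroup.mem_centralizer_iff.mp hc.2 s hs
    rw [h1]
    group
  have hGKC' : ∀ g ∈ G, ∃ k ∈ K, ∃ c ∈ C, g = k * c := by
    intro g hg
    rw [← hGKC] at hg
    exact exists_mul_of_mem_sup (fun c hc k hk => hKn c (hCG hc) k hk) hg
  have hHLC : ∀ h ∈ H, ∃ l ∈ L, ∃ c ∈ C, h = l * c := by
    intro h hh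
    rw [hH] at hh
    exact exists_mul_of_mem_sup (fun c hc k hk => hLn c (hCG hc) k hk) hh
  have hSH : ∀ s ∈ S, ∀ h ∈ H, s * h * s⁻¹ ∈ H := by
    intro s hs h hh
    obtain ⟨l, hl, c, hc, rfl⟩ := hHLC h hh
    have h1 : s * (l * c) * s⁻¹ = (s * l * s⁻¹) * (s * c * s⁻¹) := by group
    rw [h1, hCf c hc s hs]
    exact H.mul_mem (hLH (hLS s hs l hl)) (hCH hc)
  refine
    { hnorm := hnorm
      hcop := hcop
      hsolv := hGsolv
      hodd := hodd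
      hCG := hCG
      hCf := hCf
      hCm := ?_
      hLK := inf_le_left
      hKG := hKG
      hKn := hKn
      hLn := ?_
      hKS := hKS
      hLS := fun s hs x hx => ⟨hKS s hs x hx.1, hSH s hs x hx.2⟩
      hab := fun a ha b hb => ⟨hLK (hab a ha b hb), hLH (hab a ha b hb)⟩
      hGKC := hGKC'
      hLH := inf_le_right
      hCH := hCH
      hHG := hHG
      hHLC := fun h hh => by
        obtain ⟨l, hl, c, hc, e⟩ := hHLC h hh
        exact ⟨l, ⟨hLK hl, hLH hl⟩, c, hc, e⟩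
      hKH := fun x hx hx' => ⟨hx, hx'⟩ }
  · intro g hg h
    rw [hC]
    refine ⟨hg, Subgroup.mem_centralizer_iff.mpr fun s hs => ?_⟩
    have h1 := h s hs
    calc s * g = s * g * s⁻¹ * s := by group
      _ = g * s := by rw [h1]
  · intro g hg x hx
    refine ⟨hKn g hg x hx.1, ?_⟩
    obtain ⟨k, hk, c, hc, rfl⟩ := hGKC' g hg
    have hy1 : c * x * c⁻¹ ∈ K := hKn c (hCG hc) x hx.1
    have hy2 : c * x * c⁻¹ ∈ H := H.mul_mem (H.mul_mem (hCH hc) hx.2) (H.inv_mem (hCH hc))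
    have h1 := hab k hk _ hy1
    have h2 : k * c * x * (k * c)⁻¹ =
        (k * (c * x * c⁻¹) * k⁻¹ * (c * x * c⁻¹)⁻¹) * (c * x * c⁻¹) := by group
    have h3 : k * c * x * (k * c)⁻¹ ∈ H := by
      rw [h2]
      exact H.mul_mem (hLH h1) hy2
    exact h3

open scoped Classical in
/-- The instance used so far. -/
noncomputable def instH (H : Subgroup Γ) : Fintype H := inferInstance

open scoped Classical in
/-- The correspondence, with an arbitrary instance. -/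
theorem main_inst {G S C K L H : Subgroup Γ} (R : RD G S C K L H) [inst : Fintype H] :
    (∀ χ : IrrCharacter G, SInv S χ.1 → ∃! ψ : IrrCharacter H, SInv S ψ.1 ∧
      ∃ m : ℕ, classInner (fun h : H => χ.1 ⟨h, R.hHG h.2⟩) ψ.1 = m ∧ Odd m) ∧
    (∀ χ χ' : IrrCharacter G, SInv S χ.1 → SInv S χ'.1 → ∀ ψ : IrrCharacter H, SInv S ψ.1 →
      ∀ m m' : ℕ, classInner (fun h : H => χ.1 ⟨h, R.hHG h.2⟩) ψ.1 = m → Odd m →
      classInner (fun h : H => χ'.1 ⟨h, R.hHG h.2⟩) ψ.1 = m' → Odd m' → χ = χ') ∧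
    (∀ ψ : IrrCharacter H, SInv S ψ.1 → ∃ χ : IrrCharacter G, SInv S χ.1 ∧
      ∃ m : ℕ, classInner (fun h : H => χ.1 ⟨h, R.hHG h.2⟩) ψ.1 = m ∧ Odd m) := by
  have h := reduced_main R
  have he : inst = instH H := Subsingleton.elim _ _
  subst he
  exact h

end Cfsg.Agent.Lib.OddSym.TopC
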